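import Cfsg.Agent.RootSub.QP.Components

/-! The root groups of one component form a class of abstract root subgroups. -/

set_option autoImplicit false
set_option linter.unusedSimpArgs false

namespace Cfsg.Agent.RootSub.QP

open Cfsg
open scoped commutatorElement

universe u

variable {k : Type u} [Field k] {M : Type u} [AddCommGroup M] [Module k M] [FiniteDimensional k M]

local notation "GLM" => LinearMap.GeneralLinearGroup k M
local notation "EndM" => M →ₗ[k] M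

variable {G : Subgroup (LinearMap.GeneralLinearGroup k M)} {a : M →ₗ[k] M}
variable (h2 : (2 : k) ≠ 0) (h3 : Nat.card k ≠ 3)

include h2 h3 in
theorem isRootSubgroupClass_compPart (hirr : IsIrreducibleFor G)
    (hgen : Subgroup.closure (quadraticElements G) = G) (ha : MinQ G a) :
    IsRootSubgroupClass ((fun A : Subgroup GLM => A.subgroupOf (⨆ B ∈ compPart G a, B)) '' compPart G a) := by
  set K := ⨆ B ∈ compPart G a, B with hK
  have hle : ∀ A ∈ compPart G a, A ≤ K := fun A hA =>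
    le_iSup₂ (f := fun (B : Subgroup GLM) (_ : B ∈ compPart G a) => B) A hA
  have hKc : K = compGroup G a := iSup_compPart h2 h3 hirr a
  have hKG : K ≤ G := hKc ▸ compGroup_le a
  refine ⟨⟨?_, ?_, ?_, ?_, ?_⟩, ⟨_, _, ⟨a, self_mem_comp ha, rfl⟩, rfl⟩, ?_⟩
  · rintro _ ⟨_, ⟨x, -, rfl⟩, rfl⟩
    exact ⟨⟨fun p q => Subtype.ext (Subtype.ext (rootGroup_mul_comm p.2 q.2))⟩⟩
  · rintro _ ⟨_, ⟨x, hx, rfl⟩, rfl⟩ h0
    refine rootGroup_ne_bot hx.1 ?_
    have h0' : (rootGroup G x).subgroupOf K = ⊥ := h0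
    rw [← map_subgroupOf (hle _ ⟨x, hx, rfl⟩), h0', Subgroup.map_bot]
  · apply Subgroup.map_injective (Subgroup.subtype_injective K)
    rw [← MonoidHom.range_eq_map, Subgroup.range_subtype, Subgroup.map_iSup]
    refine le_antisymm (iSup_le fun C => ?_) ?_
    · rw [Subgroup.map_iSup]
      exact iSup_le fun _ => Subgroup.map_subtype_le C
    · refine iSup₂_le fun A hA => ?_
      refine le_trans (le_of_eq (map_subgroupOf (hle A hA)).symm) (le_iSup_of_le (A.subgroupOf K) ?_)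
      rw [Subgroup.map_iSup]
      exact le_iSup_of_le
        (⟨A, hA, rfl⟩ : A.subgroupOf K ∈ (fun A : Subgroup GLM => A.subgroupOf K) '' _) le_rfl
  · rintro _ ⟨_, ⟨x, hx, rfl⟩, rfl⟩ g
    refine ⟨conjBy (rootGroup G x) (g : GLM), ?_, ?_⟩
    · rw [conjBy_rootGroup x (hKG g.2)]
      exact ⟨_, ⟨hx.1.conj (hKG g.2), hx.2.trans (conn_conj h2 h3 hirr hgen hx.1 (hKG g.2))⟩, rfl⟩
    · apply Subgroup.map_injective (Subgroup.subtype_injective K)
      rw [map_conjBy, map_subgroupOf (hle _ ⟨x, hx, rfl⟩), map_subgroupOf]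
      · rfl
      · exact conjBy_le_of_mem (hle _ ⟨x, hx, rfl⟩) g.2
  · rintro _ ⟨_, ⟨x, hx, rfl⟩, rfl⟩ _ ⟨_, ⟨y, hy, rfl⟩, rfl⟩
    have hlx := hle _ ⟨x, hx, rfl⟩
    have hly := hle _ ⟨y, hy, rfl⟩
    rcases pair_cases h2 h3 hirr hx.1 hy.1 with h | h | h
    · left
      rw [commutator_subgroupOf hlx hly, h, Subgroup.bot_subgroupOf]
    · exact Or.inr (Or.inl ((isRankOnePair_subgroupOf hlx hly).2 h))
    · by_cases hi : Inv x y
      · exact Or.inr (Or.inl ((isRankOnePair_subgroupOf hlx hly).2 (isRankOnePair_of_inv h2 h3 hx.1 hy.1 hi)))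
      by_cases hne : x * y = y * x
      · left
        rw [commutator_subgroupOf hlx hly, commutator_eq_bot_of_commute fun p hp q hq =>
          commute_all h2 h3 hx.1 hy.1 hne hp hq, Subgroup.bot_subgroupOf]
      refine Or.inr (Or.inr (rootCommutatorCase_subgroupOf hlx hly ⟨?_, h.2⟩))
      refine ⟨x * y - y * x, ⟨(z_spec h2 h3 hx.1 hy.1 hi (sub_ne_zero.2 hne)).1,
        hx.2.trans (conn_bracket h2 h3 hirr hx.1 hy.1 hi hne)⟩, ?_⟩
      exact (commutator_case h2 h3 hirr hx.1 hy.1 hi hne).1.symm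
  · rintro _ ⟨_, ⟨x, hx, rfl⟩, rfl⟩ _ ⟨_, ⟨y, hy, rfl⟩, rfl⟩
    obtain ⟨g, hg, hge⟩ := exists_conj_of_mem_comp h2 h3 hx
    obtain ⟨g', hg', hge'⟩ := exists_conj_of_mem_comp h2 h3 hy
    refine ⟨⟨g' * g⁻¹, hKc ▸ mul_mem hg' (inv_mem hg)⟩, ?_⟩
    apply Subgroup.map_injective (Subgroup.subtype_injective K)
    rw [map_conjBy, map_subgroupOf (hle _ ⟨y, hy, rfl⟩), map_subgroupOf (hle _ ⟨x, hx, rfl⟩),
      hge, hge']
    show _ = conjBy _ (g' * g⁻¹)
    rw [conjBy_conjBy, inv_mul_cancel_right]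

end Cfsg.Agent.RootSub.QP
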